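import Cfsg.Agent.Lib.Helper13.SUSmall.Defs

/-! su_small piece E6cB1. -/

set_option autoImplicit false

namespace Cfsg.Agent.Lib.Helper86.SUSmall

open Cfsg Cfsg.Geo Matrix Cfsg.Agent.Lib.Helper5.SUAsch Cfsg.Agent.Lib.Helper13.SUSmall
open scoped MatrixGroups

variable {F : Type*} [Field F]

set_option maxHeartbeats 4000000 in
theorem e6c_B1_shape (ω : F) (h : Matrix (Fin 6) (Fin 6) F)
    (hcom : h * lam6 ω = lam6 ω * h) :
    h = !![h 0 0, ω * h 2 0, ω * h 1 0, h 0 3, ω * h 2 3, ω * h 1 3;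
           h 1 0, h 0 0, ω * h 2 0, h 1 3, h 0 3, ω * h 2 3;
           h 2 0, h 1 0, h 0 0, h 2 3, h 1 3, h 0 3;
           h 3 0, ω * h 5 0, ω * h 4 0, h 3 3, ω * h 5 3, ω * h 4 3;
           h 4 0, h 3 0, ω * h 5 0, h 4 3, h 3 3, ω * h 5 3;
           h 5 0, h 4 0, h 3 0, h 5 3, h 4 3, h 3 3] := by
  have E : ∀ i j, (h * lam6 ω) i j = (lam6 ω * h) i j := fun i j => by rw [hcom]
  have e00 := E 0 0
  have e01 := E 0 1
  have e03 := E 0 3
  have e04 := E 0 4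
  have e10 := E 1 0
  have e11 := E 1 1
  have e13 := E 1 3
  have e14 := E 1 4
  have e20 := E 2 0
  have e21 := E 2 1
  have e23 := E 2 3
  have e24 := E 2 4
  have e30 := E 3 0
  have e31 := E 3 1
  have e33 := E 3 3
  have e34 := E 3 4
  have e40 := E 4 0
  have e41 := E 4 1
  have e43 := E 4 3
  have e44 := E 4 4
  have e50 := E 5 0
  have e51 := E 5 1
  have e53 := E 5 3
  have e54 := E 5 4
  simp [lam6, Matrix.mul_apply, Fin.sum_univ_six] at e00 e01 e03 e04 e10 e11 e13 e14 e20 e21 e23 e24 e30 e31 e33 e34 e40 e41 e43 e44 e50 e51 e53 e54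
  ext i j
  fin_cases i <;> fin_cases j <;> simp [*]

set_option maxHeartbeats 4000000 in
/-- E6cB1 -/
theorem e6c_B1 (h2 : (2 : F) = 0) (ω : F) (h : Matrix (Fin 6) (Fin 6) F)
    (hcom : h * lam6 ω = lam6 ω * h) :
    ∃ d0 d1 d2 : F, hᵀ * B6 ω * h = B6 ω * pol6 ω d0 d1 d2 := by
  have hs := e6c_B1_shape ω h hcom
  generalize h 0 0 = a0 at hs
  generalize h 1 0 = a1 at hs
  generalize h 2 0 = a2 at hs
  generalize h 0 3 = b0 at hs
  generalize h 1 3 = b1 at hs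
  generalize h 2 3 = b2 at hs
  generalize h 3 0 = c0 at hs
  generalize h 4 0 = c1 at hs
  generalize h 5 0 = c2 at hs
  generalize h 3 3 = e0 at hs
  generalize h 4 3 = e1 at hs
  generalize h 5 3 = e2 at hs
  subst hs
  refine ⟨a0 * e0 + ω * (a1 * e2 + a2 * e1) + (b0 * c0 + ω * (b1 * c2 + b2 * c1)),
    a0 * e1 + a1 * e0 + ω * (a2 * e2) + (b0 * c1 + b1 * c0 + ω * (b2 * c2)),
    a0 * e2 + a1 * e1 + a2 * e0 + (b0 * c2 + b1 * c1 + b2 * c0), ?_⟩
  ext i j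
  fin_cases i <;> fin_cases j <;>
    simp [B6, pol6, lam6, pow_two, Matrix.mul_apply, Fin.sum_univ_six, Matrix.transpose_apply] <;>
    ring_nf <;> simp [h2]

end Cfsg.Agent.Lib.Helper86.SUSmall
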