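import Mathlib
import Cfsg.Agent.Lib.Helper47.SURows.D1e

set_option autoImplicit false
set_option linter.unusedSectionVars false
set_option linter.unusedVariables false

/-! # SU rows, piece U3-D1e3: `SU_3(q)` (`q ≥ 3`) lies in no subfield subgroup -/

namespace Cfsg.Agent.Lib.Helper86.SUSmall

open Cfsg Cfsg.Geo Matrix Cfsg.Agent.Lib.Helper5.SUAsch Cfsg.Agent.Lib.Helper5
  Cfsg.Agent.Lib.Helper13 Cfsg.Agent.Lib.Helper94 Cfsg.Agent.Lib.Helper94.U
  Cfsg.Agent.Lib.Helper5.SURows Cfsg.Agent.Lib.Helper47.SURows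
open scoped Kronecker MatrixGroups

variable {F : Type*} [Field F] {n q : ℕ}

/-- (copied from helper47's D1e) every isotropic line is rational -/
theorem rat_of_le [Fintype F] (hF : Fintype.card F = q ^ 2) (hn : 3 ≤ n)
    (h32 : ¬ (n = 3 ∧ q = 2)) (F₀ : Subfield F) (P : GL (Fin n) F)
    (hle : SUg n F q ≤ subfieldSubgroup F₀ P) :
    ∀ a : Fin n → F, a ≠ 0 → hermForm n F q a a = 0 →
      ∃ l : F, l ≠ 0 ∧ ∀ i, (((P⁻¹ : GL (Fin n) F) : Matrix (Fin n) (Fin n) F) *ᵥ (l • a)) i ∈ F₀ := by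
  have hle2 := le_conj_range hF hn h32 F₀ P hle
  set Q : Matrix (Fin n) (Fin n) F := ((P⁻¹ : GL (Fin n) F) : Matrix (Fin n) (Fin n) F) with hQ
  have hQP : Q * (P : Matrix (Fin n) (Fin n) F) = 1 := by
    rw [hQ, ← Units.val_mul, inv_mul_cancel, Units.val_one]
  have hPQ : (P : Matrix (Fin n) (Fin n) F) * Q = 1 := by
    rw [hQ, ← Units.val_mul, mul_inv_cancel, Units.val_one]
  -- `SU` stabilises the rational points
  have hstab : ∀ g ∈ SUg n F q, ∀ x : Fin n → F, (∀ i, (Q *ᵥ x) i ∈ F₀) →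
      ∀ i, (Q *ᵥ ((g : Matrix (Fin n) (Fin n) F) *ᵥ x)) i ∈ F₀ := by
    intro g hg x hx i
    obtain ⟨y, ⟨m, rfl⟩, rfl⟩ := hle2 hg
    have e : Q *ᵥ ((((MulAut.conj P).toMonoidHom
        (Matrix.GeneralLinearGroup.map (F₀.subtype : F₀ →+* F) m) : GL (Fin n) F) :
        Matrix (Fin n) (Fin n) F) *ᵥ x) =
        ((Matrix.GeneralLinearGroup.map (F₀.subtype : F₀ →+* F) m : GL (Fin n) F) :
        Matrix (Fin n) (Fin n) F) *ᵥ (Q *ᵥ x) := by
      simp only [MulEquiv.coe_toMonoidHom, MulAut.conj_apply, Units.val_mul]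
      rw [Matrix.mulVec_mulVec, Matrix.mulVec_mulVec, ← hQ, ← mul_assoc, ← mul_assoc, hQP, one_mul]
    rw [e]
    simp only [Matrix.mulVec, dotProduct]
    refine F₀.sum_mem fun j _ => F₀.mul_mem ?_ (hx j)
    rw [Matrix.GeneralLinearGroup.map_apply]
    exact (m.1 i j).2
  obtain ⟨c, hc0, hc⟩ := exists_skew_q hF
  intro a ha0 ha
  obtain ⟨g, hg, hgx⟩ := exists_tv hF a c ha hc
  obtain ⟨j, hj⟩ : ∃ j, hermForm n F q ((P : Matrix (Fin n) (Fin n) F) *ᵥ Pi.single j 1) a ≠ 0 := by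
    by_contra hcon
    push Not at hcon
    obtain ⟨z, hz⟩ := exists_hermForm_ne_zero hF ha0
    apply hz
    have h0 : (hermL n q a).comp (Matrix.toLin' (P : Matrix (Fin n) (Fin n) F)) = 0 := by
      apply LinearMap.pi_ext'
      intro j
      apply LinearMap.ext_ring
      simpa using hcon j
    have h1 := congrArg (fun f : (Fin n → F) →ₗ[F] F => f (Q *ᵥ z)) h0
    simpa [Matrix.mulVec_mulVec, hPQ] using h1
  refine ⟨c * hermForm n F q ((P : Matrix (Fin n) (Fin n) F) *ᵥ Pi.single j 1) a,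
    mul_ne_zero hc0 hj, fun i => ?_⟩
  have hb : ∀ i, (Q *ᵥ ((P : Matrix (Fin n) (Fin n) F) *ᵥ Pi.single j 1)) i ∈ F₀ := by
    intro i
    rw [Matrix.mulVec_mulVec, hQP, Matrix.one_mulVec, Pi.single_apply]
    split_ifs
    · exact F₀.one_mem
    · exact F₀.zero_mem
  have h1 := hstab g hg _ hb i
  rw [hgx, Matrix.mulVec_add, Pi.add_apply] at h1
  have h2 := F₀.sub_mem h1 (hb i)
  rwa [add_sub_cancel_left] at h2

/-- the determinant of three vectors, explicitly -/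
def dd (x y z : Fin 3 → F) : F :=
  x 0 * y 1 * z 2 - x 0 * y 2 * z 1 - x 1 * y 0 * z 2 + x 1 * y 2 * z 0 + x 2 * y 0 * z 1
    - x 2 * y 1 * z 0

theorem dd_mem (F₀ : Subfield F) {x y z : Fin 3 → F} (hx : ∀ i, x i ∈ F₀) (hy : ∀ i, y i ∈ F₀)
    (hz : ∀ i, z i ∈ F₀) : dd x y z ∈ F₀ := by
  unfold dd
  refine F₀.sub_mem (F₀.add_mem (F₀.add_mem (F₀.sub_mem (F₀.sub_mem ?_ ?_) ?_) ?_) ?_) ?_ <;>
    exact F₀.mul_mem (F₀.mul_mem (hx _) (hy _)) (hz _)

theorem dd_mulVec (Q : Matrix (Fin 3) (Fin 3) F) (x y z : Fin 3 → F) :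
    dd (Q *ᵥ x) (Q *ᵥ y) (Q *ᵥ z) = Q.det * dd x y z := by
  simp only [dd, Matrix.det_fin_three, Matrix.mulVec, dotProduct, Fin.sum_univ_three]
  ring

theorem cramer (F₀ : Subfield F) {u1 u2 u3 v : Fin 3 → F} (h1 : ∀ i, u1 i ∈ F₀)
    (h2 : ∀ i, u2 i ∈ F₀) (h3 : ∀ i, u3 i ∈ F₀) (hv : ∀ i, v i ∈ F₀) (c1 c2 c3 : F)
    (he : v = c1 • u1 + c2 • u2 + c3 • u3) (hΔ : dd u1 u2 u3 ≠ 0) : c1 ∈ F₀ ∧ c3 ∈ F₀ := by
  have e1 : c1 = dd v u2 u3 / dd u1 u2 u3 := by
    rw [eq_div_iff hΔ, he]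
    simp only [dd, Pi.add_apply, Pi.smul_apply, smul_eq_mul]
    ring
  have e3 : c3 = dd u1 u2 v / dd u1 u2 u3 := by
    rw [eq_div_iff hΔ, he]
    simp only [dd, Pi.add_apply, Pi.smul_apply, smul_eq_mul]
    ring
  refine ⟨?_, ?_⟩
  · rw [e1]; exact F₀.div_mem (dd_mem F₀ hv h2 h3) (dd_mem F₀ h1 h2 h3)
  · rw [e3]; exact F₀.div_mem (dd_mem F₀ h1 h2 hv) (dd_mem F₀ h1 h2 h3)

theorem herm3 (x y : Fin 3 → F) :
    hermForm 3 F q x y = x 0 * y 0 ^ q + x 1 * y 1 ^ q + x 2 * y 2 ^ q := by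
  simp only [hermForm, Fin.sum_univ_three]

/-- U3-D1e3 -/
theorem su3_not_le_subfield [Fintype F] (hF : Fintype.card F = q ^ 2) (hq : 3 ≤ q)
    (F₀ : Subfield F) (hF₀ : F₀ ≠ ⊤) (P : GL (Fin 3) F) :
    ¬ SUg 3 F q ≤ subfieldSubgroup F₀ P := by
  intro hle
  have hrat := rat_of_le hF le_rfl (by omega) F₀ P hle
  set Q : Matrix (Fin 3) (Fin 3) F := ((P⁻¹ : GL (Fin 3) F) : Matrix (Fin 3) (Fin 3) F) with hQ
  have hQP : Q * (P : Matrix (Fin 3) (Fin 3) F) = 1 := by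
    rw [hQ, ← Units.val_mul, inv_mul_cancel, Units.val_one]
  have hdetQ : Q.det ≠ 0 := by
    intro h
    have := congrArg Matrix.det hQP
    rw [Matrix.det_mul, h, zero_mul, Matrix.det_one] at this
    exact zero_ne_one this
  obtain ⟨ε, hε⟩ := norm_neg_one_exists hF
  obtain ⟨t0, ht0⟩ := exists_tr hF (-1) (by rw [neg_pow_q hF, one_pow])
  obtain ⟨θ, hθ⟩ : ∃ t, t ∉ F₀ := by
    by_contra h
    push Not at h
    exact hF₀ (eq_top_iff.2 fun x _ => h x)
  have hq0 : q ≠ 0 := by omega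
  have hε0 : ε ≠ 0 := by
    rintro rfl
    rw [zero_pow (by omega)] at hε
    exact one_ne_zero (neg_eq_zero.1 hε.symm)
  set a : Fin 3 → F := ![1, ε, 0] with ha
  set b : Fin 3 → F := ![1 + t0, t0 * ε, 0] with hb
  set d : Fin 3 → F := ![0, 0, 1] with hd
  have hεq : ε * ε ^ q = -1 := by rw [← pow_succ', hε]
  have haa : hermForm 3 F q a a = 0 := by
    rw [herm3]; simp [ha, hq0, hεq]
  have hab : hermForm 3 F q a b = 1 := by
    rw [herm3]
    simp only [ha, hb, Matrix.cons_val_zero, Matrix.cons_val_one, Matrix.cons_val]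
    rw [add_pow_q hF, mul_pow, one_pow, zero_pow hq0]
    linear_combination t0 ^ q * hεq
  have hba : hermForm 3 F q b a = 1 := by
    rw [herm3]
    simp only [ha, hb, Matrix.cons_val_zero, Matrix.cons_val_one, Matrix.cons_val]
    rw [one_pow, zero_pow hq0]
    linear_combination t0 * hεq
  have hbb : hermForm 3 F q b b = 0 := by
    rw [herm3]
    simp only [hb, Matrix.cons_val_zero, Matrix.cons_val_one, Matrix.cons_val]
    rw [add_pow_q hF, mul_pow, one_pow, zero_pow hq0]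
    linear_combination t0 * t0 ^ q * hεq + ht0
  have hdd : hermForm 3 F q d d = 1 := by
    rw [herm3]; simp [hd, hq0]
  have had : hermForm 3 F q a d = 0 := by
    rw [herm3]; simp [ha, hd, hq0]
  have hda : hermForm 3 F q d a = 0 := by
    rw [herm3]; simp [ha, hd, hq0]
  have hbd : hermForm 3 F q b d = 0 := by
    rw [herm3]; simp [hb, hd, hq0]
  have hdb : hermForm 3 F q d b = 0 := by
    rw [herm3]; simp [hb, hd, hq0]
  have hiso : ∀ τ s : F, τ * s ^ q + s * τ ^ q + 1 = 0 →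
      hermForm 3 F q (τ • a + s • b + d) (τ • a + s • b + d) = 0 := by
    intro τ s h
    simp only [hermForm_add_left, hermForm_add_right hF, hermForm_smul_left, hermForm_smul_right,
      haa, hab, hba, hbb, hdd, had, hda, hbd, hdb]
    linear_combination h
  have hne : ∀ τ s : F, τ • a + s • b + d ≠ 0 := by
    intro τ s h
    have := congrFun h 2
    simp [ha, hb, hd] at this
  have ha0 : a ≠ 0 := by
    intro h
    have := congrFun h 0
    simp [ha] at this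
  have hb0 : b ≠ 0 := by
    intro h
    have h0 := congrFun h 0
    have h1 := congrFun h 1
    simp only [hb, Matrix.cons_val_zero, Matrix.cons_val_one, Matrix.cons_val, Pi.zero_apply] at h0 h1
    rcases mul_eq_zero.1 h1 with h2 | h2
    · rw [h2, add_zero] at h0; exact one_ne_zero h0
    · exact hε0 h2
  obtain ⟨l, hl0, hl⟩ := hrat a ha0 haa
  obtain ⟨m, hm0, hm⟩ := hrat b hb0 hbb
  have hx1 : (1 : F) * t0 ^ q + t0 * 1 ^ q + 1 = 0 := by
    rw [one_pow]; linear_combination ht0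
  obtain ⟨ν, hν0, hν⟩ := hrat _ (hne 1 t0) (hiso 1 t0 hx1)
  have hΔ : dd (Q *ᵥ (l • a)) (Q *ᵥ (m • b)) (Q *ᵥ (ν • ((1 : F) • a + t0 • b + d))) ≠ 0 := by
    rw [dd_mulVec]
    apply mul_ne_zero hdetQ
    have : dd (l • a) (m • b) (ν • ((1 : F) • a + t0 • b + d)) = -(l * m * ν * ε) := by
      simp only [dd, ha, hb, hd, Pi.add_apply, Pi.smul_apply, smul_eq_mul, Matrix.cons_val_zero,
        Matrix.cons_val_one, Matrix.cons_val]
      ring
    rw [this]
    exact neg_ne_zero.2 (mul_ne_zero (mul_ne_zero (mul_ne_zero hl0 hm0) hν0) hε0)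
  have key : ∀ τ : F, τ ≠ 0 → (τ - 1) * (ν / l) ∈ F₀ := by
    intro τ hτ
    have hτq : τ ^ q ≠ 0 := pow_ne_zero _ hτ
    have h1 : τ * (t0 / τ ^ q) ^ q + (t0 / τ ^ q) * τ ^ q + 1 = 0 := by
      rw [div_pow, pow_q_pow_q hF]
      field_simp
      linear_combination ht0
    obtain ⟨μ, hμ0, hμ⟩ := hrat _ (hne τ (t0 / τ ^ q)) (hiso τ _ h1)
    have he : Q *ᵥ (μ • (τ • a + (t0 / τ ^ q) • b + d)) =
        (μ * (τ - 1) / l) • (Q *ᵥ (l • a)) + (μ * (t0 / τ ^ q - t0) / m) • (Q *ᵥ (m • b)) +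
          (μ / ν) • (Q *ᵥ (ν • ((1 : F) • a + t0 • b + d))) := by
      rw [← Matrix.mulVec_smul, ← Matrix.mulVec_smul, ← Matrix.mulVec_smul, ← Matrix.mulVec_add,
        ← Matrix.mulVec_add]
      congr 1
      rw [smul_smul, smul_smul, smul_smul, div_mul_cancel₀ _ hl0, div_mul_cancel₀ _ hm0,
        div_mul_cancel₀ _ hν0]
      funext i
      simp only [Pi.add_apply, Pi.smul_apply, smul_eq_mul]
      ring
    obtain ⟨c1, c3⟩ := cramer F₀ hl hm hν hμ _ _ _ he hΔ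
    have : (τ - 1) * (ν / l) = (μ * (τ - 1) / l) / (μ / ν) := by
      field_simp
    rw [this]
    exact F₀.div_mem c1 c3
  have hκ0 : ν / l ≠ 0 := div_ne_zero hν0 hl0
  have k1 : θ * (ν / l) ∈ F₀ := by
    have h := key (θ + 1) (by
      intro h
      apply hθ
      have : θ = -1 := by linear_combination h
      rw [this]; exact F₀.neg_mem F₀.one_mem)
    rwa [add_sub_cancel_right] at h
  have k2 : (θ + 1) * (ν / l) ∈ F₀ := by
    have h := key (θ + 2) (by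
      intro h
      apply hθ
      have : θ = -(1 + 1) := by linear_combination h
      rw [this]; exact F₀.neg_mem (F₀.add_mem F₀.one_mem F₀.one_mem))
    have e : θ + 2 - 1 = θ + 1 := by ring
    rwa [e] at h
  have k3 : ν / l ∈ F₀ := by
    have := F₀.sub_mem k2 k1
    have e : (θ + 1) * (ν / l) - θ * (ν / l) = ν / l := by ring
    rwa [e] at this
  apply hθ
  have : θ = θ * (ν / l) / (ν / l) := by field_simp
  rw [this]
  exact F₀.div_mem k1 k3

end Cfsg.Agent.Lib.Helper86.SUSmall
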