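import Cfsg.Agent.Lib.Helper13.SUSmall.Defs5
import Cfsg.Agent.Lib.Helper5.SUAsch.Bridge
import Cfsg.Agent.Lib.Helper5.SUOrder

/-! su_small piece E3cD: explicit data for `3.A_7 < SU_3(5)`. -/

set_option autoImplicit false
set_option linter.unusedSectionVars false

namespace Cfsg.Agent.Lib.Helper86.SUSmall

open Cfsg Cfsg.Geo Matrix Cfsg.Agent.Lib.Helper5.SUAsch Cfsg.Agent.Lib.Helper13.SUSmall
open scoped MatrixGroups

namespace E3c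

/-- a concrete field with 25 elements -/
abbrev K25 := QuadraticAlgebra (ZMod 5) 2 0

instance factP5 : Fact (Nat.Prime 5) := ⟨by norm_num⟩

instance factK25 : Fact (∀ r : ZMod 5, r ^ 2 ≠ 2 + 0 * r) := ⟨by decide⟩

instance fintypeK25 : Fintype K25 :=
  Fintype.ofEquiv _ (QuadraticAlgebra.equivProd (2 : ZMod 5) 0).symm

theorem card_K25 : Fintype.card K25 = 25 := by
  rw [Fintype.card_congr (QuadraticAlgebra.equivProd (2 : ZMod 5) 0)]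
  simp

abbrev M3 := Matrix (Fin 3) (Fin 3) K25

def t0 : K25 := ⟨0, 1⟩

def L1 : M3 :=
  !![⟨0, 0⟩, ⟨2, 0⟩, ⟨3, 1⟩;
    ⟨0, 0⟩, ⟨2, 1⟩, ⟨2, 0⟩;
    ⟨1, 0⟩, ⟨0, 0⟩, ⟨0, 0⟩]

def L2 : M3 :=
  !![⟨3, 1⟩, ⟨4, 2⟩, ⟨4, 0⟩;
    ⟨2, 0⟩, ⟨1, 4⟩, ⟨4, 2⟩;
    ⟨0, 0⟩, ⟨2, 0⟩, ⟨3, 1⟩]

def L3 : M3 :=
  !![⟨4, 0⟩, ⟨3, 0⟩, ⟨4, 0⟩;
    ⟨4, 2⟩, ⟨4, 4⟩, ⟨3, 0⟩;
    ⟨3, 1⟩, ⟨4, 2⟩, ⟨4, 0⟩]

def L4 : M3 :=
  !![⟨4, 0⟩, ⟨4, 3⟩, ⟨3, 4⟩;
    ⟨3, 0⟩, ⟨4, 1⟩, ⟨4, 3⟩;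
    ⟨4, 0⟩, ⟨3, 0⟩, ⟨4, 0⟩]

def L5 : M3 :=
  !![⟨3, 4⟩, ⟨2, 0⟩, ⟨0, 0⟩;
    ⟨4, 3⟩, ⟨1, 1⟩, ⟨2, 0⟩;
    ⟨4, 0⟩, ⟨4, 3⟩, ⟨3, 4⟩]

def L6 : M3 :=
  !![⟨0, 0⟩, ⟨0, 0⟩, ⟨1, 0⟩;
    ⟨2, 0⟩, ⟨2, 4⟩, ⟨0, 0⟩;
    ⟨3, 4⟩, ⟨2, 0⟩, ⟨0, 0⟩]

def Gm : M3 :=
  !![⟨4, 0⟩, ⟨0, 0⟩, ⟨0, 0⟩;
    ⟨0, 0⟩, ⟨4, 0⟩, ⟨0, 0⟩;
    ⟨0, 0⟩, ⟨0, 0⟩, ⟨1, 0⟩]

def Sm : M3 :=
  !![⟨0, 0⟩, ⟨1, 0⟩, ⟨0, 0⟩;
    ⟨1, 0⟩, ⟨0, 0⟩, ⟨0, 0⟩;
    ⟨0, 0⟩, ⟨0, 0⟩, ⟨4, 0⟩]

theorem L1_mul : L1 * L1 = L2 := by decide +kernel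
theorem L2_mul : L2 * L1 = L3 := by decide +kernel
theorem L3_mul : L3 * L1 = L4 := by decide +kernel
theorem L4_mul : L4 * L1 = L5 := by decide +kernel
theorem L5_mul : L5 * L1 = L6 := by decide +kernel
theorem L6_mul : L6 * L1 = 1 := by decide +kernel
theorem L1_mul6 : L1 * L6 = 1 := by decide +kernel
theorem pw0 : L1 ^ 0 = 1 := pow_zero _
theorem pw1 : L1 ^ 1 = L1 := pow_one _
theorem pw2 : L1 ^ 2 = L2 := by rw [pow_succ, pw1, L1_mul]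
theorem pw3 : L1 ^ 3 = L3 := by rw [pow_succ, pw2, L2_mul]
theorem pw4 : L1 ^ 4 = L4 := by rw [pow_succ, pw3, L3_mul]
theorem pw5 : L1 ^ 5 = L5 := by rw [pow_succ, pw4, L4_mul]
theorem pw6 : L1 ^ 6 = L6 := by rw [pow_succ, pw5, L5_mul]
theorem pw7 : L1 ^ 7 = 1 := by rw [pow_succ, pw6, L6_mul]
theorem pw8 : L1 ^ 8 = L1 := by rw [pow_succ, pw7, one_mul]

theorem t0_sq : t0 ^ 2 = 2 := by decide +kernel
theorem L1_unitary : L1ᵀ * L1.map (· ^ 5) = 1 := by decide +kernel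
theorem Gm_unitary : Gmᵀ * Gm.map (· ^ 5) = 1 := by decide +kernel
theorem Sm_unitary : Smᵀ * Sm.map (· ^ 5) = 1 := by decide +kernel
theorem Gm_Gm : Gm * Gm = 1 := by decide +kernel
theorem Sm_Sm : Sm * Sm = 1 := by decide +kernel
theorem L1_ne_one : L1 ≠ 1 := by decide +kernel
theorem tr0 : (1 : M3).trace ≠ L1.trace := by decide +kernel
theorem tr3 : L3.trace ≠ L1.trace := by decide +kernel
theorem tr5 : L5.trace ≠ L1.trace := by decide +kernel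
theorem tr6 : L6.trace ≠ L1.trace := by decide +kernel
theorem noncomm : Gm * L1 * Gm * L1 ≠ L1 * (Gm * L1 * Gm) := by decide +kernel
theorem Gm_det : Gm.det = 1 := by rw [Matrix.det_fin_three]; decide +kernel
theorem Sm_det : Sm.det = 1 := by rw [Matrix.det_fin_three]; decide +kernel

/-- `i`-th coordinate of `M *ᵥ (a,b,c)` -/
def lin (M : M3) (i : Fin 3) (a b c : K25) : K25 := M i 0 * a + M i 1 * b + M i 2 * c

def hf3 (a b c a' b' c' : K25) : K25 := a * a' ^ 5 + b * b' ^ 5 + c * c' ^ 5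

def d3 (x0 x1 x2 y0 y1 y2 z0 z1 z2 : K25) : K25 :=
  x0 * y1 * z2 - x0 * y2 * z1 - x1 * y0 * z2 + x1 * y2 * z0 + x2 * y0 * z1 - x2 * y1 * z0

def pairsM : List (K25 × K25) :=
  [(⟨0, 0⟩, ⟨4, 0⟩), (⟨2, 0⟩, ⟨1, 1⟩), (⟨2, 0⟩, ⟨1, 4⟩), (⟨3, 0⟩, ⟨3, 0⟩), (⟨2, 1⟩, ⟨1, 0⟩)]

theorem pairs_eq : pairs35 t0 = pairsM := by decide +kernel

def tst (M N : M3) (a b c : K25) : Prop :=
  ∃ p ∈ pairsM,
    hf3 (lin M 0 a b c) (lin M 1 a b c) (lin M 2 a b c) a b c = p.1 * hf3 a b c a b c ∧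
    (d3 a b c (lin M 0 a b c) (lin M 1 a b c) (lin M 2 a b c)
      (lin N 0 a b c) (lin N 1 a b c) (lin N 2 a b c)) ^ 2 = p.2 * hf3 a b c a b c

instance (M N : M3) (a b c : K25) : Decidable (tst M N a b c) := by unfold tst; infer_instance

def C35 (a b c : K25) : Prop :=
  hf3 a b c a b c ≠ 0 ∧ (tst L1 L2 a b c ∨ tst L2 L4 a b c ∨ tst L4 L1 a b c)

instance (a b c : K25) : Decidable (C35 a b c) := by unfold C35; infer_instance

set_option maxRecDepth 100000 in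
theorem model2 : ∀ c : K25, C35 0 (-1) c ↔ C35 0 1 c := by decide +kernel

set_option maxRecDepth 100000 in
theorem model1 : ∀ b c : K25, C35 (-1) (-b) c ↔ C35 1 b c := by decide +kernel

theorem model_x : C35 0 1 ⟨2, 1⟩ := by decide +kernel

theorem model_sx : ¬ C35 (lin Sm 0 0 1 ⟨2, 1⟩) (lin Sm 1 0 1 ⟨2, 1⟩) (lin Sm 2 0 1 ⟨2, 1⟩) := by
  decide +kernel

theorem lin_smul (M : M3) (i : Fin 3) (k a b c : K25) :
    lin M i (k * a) (k * b) (k * c) = k * lin M i a b c := by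
  unfold lin; ring

theorem hf3_smul (k a b c a' b' c' : K25) :
    hf3 (k * a) (k * b) (k * c) (k * a') (k * b') (k * c') = k ^ 6 * hf3 a b c a' b' c' := by
  unfold hf3; ring

theorem d3_smul (k x0 x1 x2 y0 y1 y2 z0 z1 z2 : K25) :
    d3 (k * x0) (k * x1) (k * x2) (k * y0) (k * y1) (k * y2) (k * z0) (k * z1) (k * z2)
      = k ^ 3 * d3 x0 x1 x2 y0 y1 y2 z0 z1 z2 := by
  unfold d3; ring

theorem tst_smul (M N : M3) (k a b c : K25) (hk : k ≠ 0) :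
    tst M N (k * a) (k * b) (k * c) ↔ tst M N a b c := by
  unfold tst
  simp only [lin_smul, hf3_smul, d3_smul]
  have h6 : k ^ 6 ≠ 0 := pow_ne_zero _ hk
  constructor
  · rintro ⟨p, hp, h1, h2⟩
    refine ⟨p, hp, mul_left_cancel₀ h6 ?_, mul_left_cancel₀ h6 ?_⟩
    · rw [h1]; ring
    · rw [← mul_assoc, mul_comm (k ^ 6) p.2, mul_assoc, ← h2]; ring
  · rintro ⟨p, hp, h1, h2⟩
    refine ⟨p, hp, ?_, ?_⟩
    · rw [h1]; ring
    · rw [mul_pow, h2]; ring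

theorem C35_smul (k a b c : K25) (hk : k ≠ 0) : C35 (k * a) (k * b) (k * c) ↔ C35 a b c := by
  unfold C35
  rw [tst_smul _ _ _ _ _ _ hk, tst_smul _ _ _ _ _ _ hk, tst_smul _ _ _ _ _ _ hk, hf3_smul]
  have h6 : k ^ 6 ≠ 0 := pow_ne_zero _ hk
  simp [h6]

theorem C35_g (a b c : K25) : C35 (-a) (-b) c ↔ C35 a b c := by
  by_cases ha : a = 0
  · by_cases hb : b = 0
    · subst ha hb; simp
    · subst ha
      have e1 := C35_smul b 0 (-1) (b⁻¹ * c) hb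
      have e2 := C35_smul b 0 1 (b⁻¹ * c) hb
      rw [mul_zero, mul_neg, mul_one, mul_inv_cancel_left₀ hb] at e1
      rw [mul_zero, mul_one, mul_inv_cancel_left₀ hb] at e2
      rw [neg_zero, e1, e2]
      exact model2 _
  · have e1 := C35_smul a (-1) (-(a⁻¹ * b)) (a⁻¹ * c) ha
    have e2 := C35_smul a 1 (a⁻¹ * b) (a⁻¹ * c) ha
    rw [mul_neg, mul_one, mul_neg, mul_inv_cancel_left₀ ha, mul_inv_cancel_left₀ ha] at e1
    rw [mul_one, mul_inv_cancel_left₀ ha, mul_inv_cancel_left₀ ha] at e2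
    rw [e1, e2]
    exact model1 _ _

theorem lin_Gm0 (a b c : K25) : lin Gm 0 a b c = -a := by
  have h1 : Gm 0 0 = -1 := by decide +kernel
  have h2 : Gm 0 1 = 0 := by decide +kernel
  have h3 : Gm 0 2 = 0 := by decide +kernel
  unfold lin; rw [h1, h2, h3]; ring

theorem lin_Gm1 (a b c : K25) : lin Gm 1 a b c = -b := by
  have h1 : Gm 1 0 = 0 := by decide +kernel
  have h2 : Gm 1 1 = -1 := by decide +kernel
  have h3 : Gm 1 2 = 0 := by decide +kernel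
  unfold lin; rw [h1, h2, h3]; ring

theorem lin_Gm2 (a b c : K25) : lin Gm 2 a b c = c := by
  have h1 : Gm 2 0 = 0 := by decide +kernel
  have h2 : Gm 2 1 = 0 := by decide +kernel
  have h3 : Gm 2 2 = 1 := by decide +kernel
  unfold lin; rw [h1, h2, h3]; ring

theorem mulVec_eq_lin (M : M3) (x : Fin 3 → K25) (i : Fin 3) :
    (M *ᵥ x) i = lin M i (x 0) (x 1) (x 2) := by
  simp [Matrix.mulVec, dotProduct, Fin.sum_univ_three, lin]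

theorem herm_eq_hf3 (x y : Fin 3 → K25) :
    hermForm 3 K25 5 x y = hf3 (x 0) (x 1) (x 2) (y 0) (y 1) (y 2) := by
  simp only [hermForm, Fin.sum_univ_three, hf3]

theorem det3_eq_d3 (x y z : Fin 3 → K25) :
    det3 x y z = d3 (x 0) (x 1) (x 2) (y 0) (y 1) (y 2) (z 0) (z 1) (z 2) := by
  simp [det3, Matrix.det_fin_three, d3]

section transfer

variable {F : Type*} [Field F] [Fintype F] (φ : K25 →+* F)

/-- the transfer of matrices -/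
def Ph : M3 →+* Matrix (Fin 3) (Fin 3) F := φ.mapMatrix

theorem Ph_apply (A : M3) (i j : Fin 3) : Ph φ A i j = φ (A i j) := rfl

theorem Ph_injective : Function.Injective (Ph φ) := by
  intro A B h
  apply Matrix.ext
  intro i j
  apply φ.injective
  rw [← Ph_apply, ← Ph_apply, h]

theorem Ph_unitary (A : M3) (h : Aᵀ * A.map (· ^ 5) = 1) :
    (Ph φ A)ᵀ * (Ph φ A).map (· ^ 5) = 1 := by
  have e1 : (Ph φ A)ᵀ = Ph φ Aᵀ := by
    ext i j; simp [Ph_apply]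
  have e2 : (Ph φ A).map (· ^ 5) = Ph φ (A.map (· ^ 5)) := by
    ext i j; simp [Ph_apply]
  rw [e1, e2, ← map_mul, h, map_one]

theorem Ph_det (A : M3) : (Ph φ A).det = φ A.det := (φ.map_det A).symm

theorem Ph_trace (A : M3) : (Ph φ A).trace = φ A.trace := by
  simp [Matrix.trace, Ph_apply]

theorem Ph_mulVec (A : M3) (x : Fin 3 → K25) :
    Ph φ A *ᵥ (fun i => φ (x i)) = fun i => φ ((A *ᵥ x) i) := by
  funext i
  exact (RingHom.map_mulVec φ A x i).symm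

theorem herm_map (x y : Fin 3 → K25) :
    hermForm 3 F 5 (fun i => φ (x i)) (fun i => φ (y i)) = φ (hermForm 3 K25 5 x y) := by
  simp only [hermForm, map_sum, map_mul, map_pow]

theorem det3_map (x y z : Fin 3 → K25) :
    det3 (fun i => φ (x i)) (fun i => φ (y i)) (fun i => φ (z i)) = φ (det3 x y z) := by
  simp [det3, Matrix.det_fin_three]

theorem pairs_map : pairs35 (φ t0) = pairsM.map (Prod.map φ φ) := by
  rw [← pairs_eq]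
  have h2 : φ 2 = 2 := map_ofNat φ 2
  have h3 : φ 3 = 3 := map_ofNat φ 3
  simp [pairs35, h2, h3]

/-- the unit attached to a pair of inverse matrices -/
def mkGL (A B : M3) (h1 : A * B = 1) (h2 : B * A = 1) : GL (Fin 3) F :=
  ⟨Ph φ A, Ph φ B, by rw [← map_mul, h1, map_one], by rw [← map_mul, h2, map_one]⟩

theorem mkGL_mem_GU (hF2 : Fintype.card F = 5 ^ 2) (A B : M3) (h1 : A * B = 1) (h2 : B * A = 1)
    (h : Aᵀ * A.map (· ^ 5) = 1) : mkGL φ A B h1 h2 ∈ GU 3 F 5 := by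
  rw [mem_GU_iff]
  exact (Cfsg.Agent.Lib.Helper5.preserves_hermForm_iff hF2 _).2 (Ph_unitary φ A h)

theorem mkGL_mem_SUg (hF2 : Fintype.card F = 5 ^ 2) (A B : M3) (h1 : A * B = 1) (h2 : B * A = 1)
    (h : Aᵀ * A.map (· ^ 5) = 1) (hd : A.det = 1) : mkGL φ A B h1 h2 ∈ SUg 3 F 5 := by
  rw [mem_SUg_iff]
  refine ⟨(Cfsg.Agent.Lib.Helper5.preserves_hermForm_iff hF2 _).2 (Ph_unitary φ A h), ?_⟩
  show (Ph φ A).det = 1
  rw [Ph_det, hd, map_one]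

def lG : GL (Fin 3) F := mkGL φ L1 L6 L1_mul6 L6_mul

theorem lG_pow (j : ℕ) : ((lG φ ^ j : GL (Fin 3) F) : Matrix (Fin 3) (Fin 3) F)
    = Ph φ (L1 ^ j) := by
  rw [Units.val_pow_eq_pow_val, map_pow]
  rfl

theorem cond35_iff (x : Fin 3 → K25) :
    cond35 (φ t0) (lG φ) (fun i => φ (x i)) ↔ C35 (x 0) (x 1) (x 2) := by
  have hinj := φ.injective
  have key : ∀ (j : ℕ) (M N : M3), L1 ^ j = M → L1 ^ (2 * j) = N →
      ((∃ p ∈ pairs35 (φ t0),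
        hermForm 3 F 5 (((lG φ ^ j : GL (Fin 3) F) : Matrix (Fin 3) (Fin 3) F) *ᵥ
          (fun i => φ (x i))) (fun i => φ (x i)) =
          p.1 * hermForm 3 F 5 (fun i => φ (x i)) (fun i => φ (x i)) ∧
        (det3 (fun i => φ (x i)) (((lG φ ^ j : GL (Fin 3) F) : Matrix (Fin 3) (Fin 3) F) *ᵥ
          (fun i => φ (x i)))
          (((lG φ ^ (2 * j) : GL (Fin 3) F) : Matrix (Fin 3) (Fin 3) F) *ᵥ
          (fun i => φ (x i)))) ^ 2 =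
          p.2 * hermForm 3 F 5 (fun i => φ (x i)) (fun i => φ (x i)))
        ↔ tst M N (x 0) (x 1) (x 2)) := by
    intro j M N hM hN
    rw [lG_pow, lG_pow, hM, hN, Ph_mulVec, Ph_mulVec, herm_map, herm_map, det3_map, herm_eq_hf3,
      herm_eq_hf3, det3_eq_d3, pairs_map]
    simp only [mulVec_eq_lin]
    unfold tst
    constructor
    · rintro ⟨p, hp, h1, h2⟩
      rw [List.mem_map] at hp
      obtain ⟨p', hp', rfl⟩ := hp
      refine ⟨p', hp', hinj ?_, hinj ?_⟩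
      · rw [map_mul]; exact h1
      · rw [map_mul, map_pow]; exact h2
    · rintro ⟨p, hp, h1, h2⟩
      refine ⟨Prod.map φ φ p, List.mem_map.2 ⟨p, hp, rfl⟩, ?_, ?_⟩
      · rw [h1, map_mul]; rfl
      · rw [← map_pow, h2, map_mul]; rfl
  have key0 : hermForm 3 F 5 (fun i => φ (x i)) (fun i => φ (x i)) ≠ 0
      ↔ hf3 (x 0) (x 1) (x 2) (x 0) (x 1) (x 2) ≠ 0 := by
    rw [herm_map, herm_eq_hf3, ← map_zero φ]
    exact hinj.ne_iff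
  unfold cond35 C35
  simp only [Finset.mem_insert, Finset.mem_singleton, exists_eq_or_imp, exists_eq_left]
  rw [key0, key 1 L1 L2 pw1 pw2, key 2 L2 L4 pw2 pw4, key 4 L4 L1 pw4 pw8]

end transfer

end E3c

open E3c in
/-- E3cD -/
theorem e3c_data {F : Type*} [Field F] [Fintype F] (hF : Fintype.card F = 5 ^ 2) :
    ∃ (t : F) (l g s : GL (Fin 3) F), t ^ 2 = 2 ∧ l ∈ GU 3 F 5 ∧ l ^ 7 = 1 ∧ l ≠ 1 ∧
      (∀ j ∈ ({0, 3, 5, 6} : Finset ℕ),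
        ((l ^ j : GL (Fin 3) F) : Matrix (Fin 3) (Fin 3) F).trace ≠
          (l : Matrix (Fin 3) (Fin 3) F).trace) ∧
      g ∈ SUg 3 F 5 ∧
      (∀ x, cond35 t l ((g : Matrix (Fin 3) (Fin 3) F) *ᵥ x) ↔ cond35 t l x) ∧
      g * l * g⁻¹ * l ≠ l * (g * l * g⁻¹) ∧
      s ∈ SUg 3 F 5 ∧ ∃ x, cond35 t l x ∧ ¬ cond35 t l ((s : Matrix (Fin 3) (Fin 3) F) *ᵥ x) := by
  have hcard : Fintype.card K25 = Fintype.card F := by rw [card_K25, hF]; norm_num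
  let ε : K25 ≃+* F := FiniteField.ringEquivOfCardEq hcard
  let φ : K25 →+* F := ε.toRingHom
  have hinj := Ph_injective φ
  refine ⟨φ t0, lG φ, mkGL φ Gm Gm Gm_Gm Gm_Gm, mkGL φ Sm Sm Sm_Sm Sm_Sm, ?_,
    mkGL_mem_GU φ hF _ _ _ _ L1_unitary, ?_, ?_, ?_,
    mkGL_mem_SUg φ hF _ _ _ _ Gm_unitary Gm_det, ?_, ?_,
    mkGL_mem_SUg φ hF _ _ _ _ Sm_unitary Sm_det, ?_⟩
  · rw [← map_pow, t0_sq, map_ofNat]
  · apply Units.ext
    rw [lG_pow, pw7, map_one]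
    rfl
  · intro h
    have h1 : Ph φ L1 = Ph φ 1 := by
      rw [map_one]
      exact congrArg Units.val h
    exact L1_ne_one (hinj h1)
  · have key : ∀ (j : ℕ) (M : M3), L1 ^ j = M → M.trace ≠ L1.trace →
        ((lG φ ^ j : GL (Fin 3) F) : Matrix (Fin 3) (Fin 3) F).trace ≠
          (lG φ : Matrix (Fin 3) (Fin 3) F).trace := by
      intro j M hM hne h
      rw [lG_pow, hM, Ph_trace] at h
      have h' : φ M.trace = φ L1.trace := by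
        rw [h, ← Ph_trace]; rfl
      exact hne (φ.injective h')
    simp only [Finset.forall_mem_insert, Finset.mem_singleton, forall_eq]
    exact ⟨key 0 1 pw0 tr0, key 3 L3 pw3 tr3, key 5 L5 pw5 tr5, key 6 L6 pw6 tr6⟩
  · intro x
    obtain ⟨a, rfl⟩ : ∃ a : Fin 3 → K25, x = fun i => φ (a i) := by
      refine ⟨fun i => ε.symm (x i), ?_⟩
      funext i
      exact (ε.apply_symm_apply (x i)).symm
    show cond35 (φ t0) (lG φ) (Ph φ Gm *ᵥ _) ↔ _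
    rw [Ph_mulVec, cond35_iff, cond35_iff]
    simp only [mulVec_eq_lin, lin_Gm0, lin_Gm1, lin_Gm2]
    exact C35_g _ _ _
  · intro h
    have h1 := congrArg Units.val h
    have h2 : Ph φ (Gm * L1 * Gm * L1) = Ph φ (L1 * (Gm * L1 * Gm)) := by
      simp only [map_mul]
      exact h1
    exact noncomm (hinj h2)
  · refine ⟨fun i => φ ((![0, 1, ⟨2, 1⟩] : Fin 3 → K25) i), ?_, ?_⟩
    · rw [cond35_iff]
      exact model_x
    · show ¬ cond35 (φ t0) (lG φ) (Ph φ Sm *ᵥ _)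
      rw [Ph_mulVec, cond35_iff]
      simp only [mulVec_eq_lin]
      exact model_sx

end Cfsg.Agent.Lib.Helper86.SUSmall
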