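import Cfsg.Agent.Lib.Helper13.SUSmall.Defs
import Cfsg.Agent.Lib.Helper27.Hexa
import Cfsg.Agent.Lib.Helper5.SUAsch.Bridge
import Cfsg.Agent.Lib.Helper5.SUOrder

/-! su_small piece E5D: explicit data for `L_2(11) < SU_5(2)`. -/

set_option autoImplicit false

namespace Cfsg.Agent.Lib.Helper86.SUSmall

open Cfsg Cfsg.Geo Matrix Cfsg.Agent.Lib.Helper5.SUAsch Cfsg.Agent.Lib.Helper13.SUSmall
open Cfsg.Agent.Lib.Helper27
open scoped MatrixGroups

namespace E5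

abbrev M5 := Matrix (Fin 5) (Fin 5) H4

open H4

def P1 : M5 :=
  !![z, w, w, z, u;
    u, u, o, o, u;
    u, w, o, o, o;
    u, o, z, z, w;
    z, u, z, u, o]

def P2 : M5 :=
  !![z, z, z, w, z;
    w, w, u, z, z;
    o, z, w, z, o;
    u, u, z, z, u;
    z, w, u, z, w]

def P3 : M5 :=
  !![o, w, z, z, u;
    u, u, w, o, u;
    o, w, z, o, z;
    w, o, w, o, u;
    u, o, o, z, z]

def P4 : M5 :=
  !![o, o, z, z, o;
    z, u, z, u, u;
    w, w, z, w, z;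
    o, z, z, o, o;
    z, z, o, z, z]

def P5 : M5 :=
  !![u, w, u, w, o;
    z, u, u, o, z;
    z, z, o, w, u;
    u, z, w, u, z;
    u, w, o, o, o]

def P6 : M5 :=
  !![w, z, z, w, w;
    u, w, z, z, u;
    w, w, o, u, o;
    u, o, u, w, o;
    o, z, w, z, o]

def P7 : M5 :=
  !![o, z, u, o, z;
    o, w, u, z, z;
    z, z, z, z, o;
    z, w, u, o, z;
    o, w, z, o, z]

def P8 : M5 :=
  !![o, w, o, u, w;
    u, w, u, o, o;
    z, u, z, u, o;
    z, o, o, o, z;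
    w, w, z, w, z]

def P9 : M5 :=
  !![z, u, o, w, z;
    z, u, z, w, u;
    z, w, u, z, w;
    u, z, z, z, z;
    z, z, o, w, u]

def P10 : M5 :=
  !![z, w, w, w, z;
    u, w, u, o, w;
    u, o, o, z, z;
    z, o, o, z, w;
    w, w, o, u, o]

def Gm : M5 :=
  !![z, z, z, z, o;
    u, z, z, z, z;
    z, z, z, w, z;
    z, o, z, z, z;
    z, z, o, z, z]

def Gi : M5 :=
  !![z, w, z, z, z;
    z, z, z, o, z;
    z, z, z, z, o;
    z, z, u, z, z;
    o, z, z, z, z]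

def Sm : M5 :=
  !![o, z, z, z, z;
    z, o, z, z, z;
    z, z, o, z, z;
    z, z, z, z, o;
    z, z, z, o, z]

theorem P1_mul : P1 * P1 = P2 := by decide +kernel
theorem P2_mul : P2 * P1 = P3 := by decide +kernel
theorem P3_mul : P3 * P1 = P4 := by decide +kernel
theorem P4_mul : P4 * P1 = P5 := by decide +kernel
theorem P5_mul : P5 * P1 = P6 := by decide +kernel
theorem P6_mul : P6 * P1 = P7 := by decide +kernel
theorem P7_mul : P7 * P1 = P8 := by decide +kernel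
theorem P8_mul : P8 * P1 = P9 := by decide +kernel
theorem P9_mul : P9 * P1 = P10 := by decide +kernel
theorem P10_mul : P10 * P1 = 1 := by decide +kernel
theorem P1_mul10 : P1 * P10 = 1 := by decide +kernel
theorem pw1 : P1 ^ 1 = P1 := pow_one _
theorem pw2 : P1 ^ 2 = P2 := by rw [pow_succ, pw1, P1_mul]
theorem pw3 : P1 ^ 3 = P3 := by rw [pow_succ, pw2, P2_mul]
theorem pw4 : P1 ^ 4 = P4 := by rw [pow_succ, pw3, P3_mul]
theorem pw5 : P1 ^ 5 = P5 := by rw [pow_succ, pw4, P4_mul]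
theorem pw6 : P1 ^ 6 = P6 := by rw [pow_succ, pw5, P5_mul]
theorem pw7 : P1 ^ 7 = P7 := by rw [pow_succ, pw6, P6_mul]
theorem pw8 : P1 ^ 8 = P8 := by rw [pow_succ, pw7, P7_mul]
theorem pw9 : P1 ^ 9 = P9 := by rw [pow_succ, pw8, P8_mul]
theorem pw10 : P1 ^ 10 = P10 := by rw [pow_succ, pw9, P9_mul]
theorem pw11 : P1 ^ 11 = 1 := by rw [pow_succ, pw10, P10_mul]

theorem P1_unitary : P1ᵀ * P1.map (· ^ 2) = 1 := by decide +kernel
theorem Gm_unitary : Gmᵀ * Gm.map (· ^ 2) = 1 := by decide +kernel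
theorem Sm_unitary : Smᵀ * Sm.map (· ^ 2) = 1 := by decide +kernel
theorem Gm_Gi : Gm * Gi = 1 := by decide +kernel
theorem Gi_Gm : Gi * Gm = 1 := by decide +kernel
theorem Sm_Sm : Sm * Sm = 1 := by decide +kernel
theorem P1_ne_one : P1 ≠ 1 := by decide +kernel
theorem m1_P1 : m1five w P1 = 0 := by decide +kernel
theorem m1_P2 : m1five w P2 ≠ 0 := by decide +kernel
theorem m1_P6 : m1five w P6 ≠ 0 := by decide +kernel
theorem m1_P7 : m1five w P7 ≠ 0 := by decide +kernel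
theorem m1_P8 : m1five w P8 ≠ 0 := by decide +kernel
theorem m1_P10 : m1five w P10 ≠ 0 := by decide +kernel
theorem noncomm : Gm * P1 * Gi * P1 ≠ P1 * (Gm * P1 * Gi) := by decide +kernel
theorem Gm_det : Gm.det = 1 := by rw [Matrix.det_apply]; decide +kernel
theorem Sm_det : Sm.det = 1 := by rw [Matrix.det_apply]; decide +kernel


/-- `i`-th coordinate of `M *ᵥ (a,b,c,d,e)` -/
def lin (M : M5) (i : Fin 5) (a b c d e : H4) : H4 :=
  M i 0 * a + M i 1 * b + M i 2 * c + M i 3 * d + M i 4 * e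

/-- `herm (M x, x)` -/
def hfM (M : M5) (a b c d e : H4) : H4 :=
  lin M 0 a b c d e * (a * a) + lin M 1 a b c d e * (b * b) + lin M 2 a b c d e * (c * c)
    + lin M 3 a b c d e * (d * d) + lin M 4 a b c d e * (e * e)

def c5b (a b c d e : H4) : Bool :=
  decide (a * (a * a) + b * (b * b) + c * (c * c) + d * (d * d) + e * (e * e) = 1) &&
  decide (hfM P1 a b c d e ≠ w) && decide (hfM P3 a b c d e ≠ w) &&
  decide (hfM P4 a b c d e ≠ w) && decide (hfM P5 a b c d e ≠ w) &&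
  decide (hfM P9 a b c d e ≠ w)

theorem c5b_inv : ∀ a b c d e : H4,
    c5b (lin Gm 0 a b c d e) (lin Gm 1 a b c d e) (lin Gm 2 a b c d e) (lin Gm 3 a b c d e)
      (lin Gm 4 a b c d e) = c5b a b c d e := by decide +kernel

theorem c5b_x : c5b 0 0 1 w 1 = true := by decide +kernel

theorem c5b_sx : c5b (lin Sm 0 0 0 1 w 1) (lin Sm 1 0 0 1 w 1) (lin Sm 2 0 0 1 w 1)
    (lin Sm 3 0 0 1 w 1) (lin Sm 4 0 0 1 w 1) = false := by decide +kernel

theorem mulVec_eq_lin (M : M5) (x : Fin 5 → H4) (i : Fin 5) :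
    (M *ᵥ x) i = lin M i (x 0) (x 1) (x 2) (x 3) (x 4) := by
  simp [Matrix.mulVec, dotProduct, Fin.sum_univ_five, lin]

theorem herm_eq_hfM (M : M5) (x : Fin 5 → H4) :
    hermForm 5 H4 2 (M *ᵥ x) x = hfM M (x 0) (x 1) (x 2) (x 3) (x 4) := by
  simp only [hermForm, Fin.sum_univ_five, mulVec_eq_lin, hfM, pow_two]

theorem herm_self (x : Fin 5 → H4) :
    hermForm 5 H4 2 x x = x 0 * (x 0 * x 0) + x 1 * (x 1 * x 1) + x 2 * (x 2 * x 2)
      + x 3 * (x 3 * x 3) + x 4 * (x 4 * x 4) := by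
  simp only [hermForm, Fin.sum_univ_five, pow_two]

section transfer

variable {F : Type*} [Field F] [Fintype F] (hF : Fintype.card F = 4) (ω : F)
  (hω : ω ^ 2 + ω + 1 = 0)

/-- the transfer of matrices -/
noncomputable def Ph : M5 →+* Matrix (Fin 5) (Fin 5) F := (ofH4Hom hF ω hω).mapMatrix

theorem Ph_apply (A : M5) (i j : Fin 5) : Ph hF ω hω A i j = ofH4Hom hF ω hω (A i j) := rfl

theorem Ph_injective : Function.Injective (Ph hF ω hω) := by
  intro A B h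
  ext i j
  apply (ofH4Hom hF ω hω).injective
  rw [← Ph_apply, ← Ph_apply, h]

theorem Ph_smul (c : H4) (A : M5) : Ph hF ω hω (c • A) = ofH4Hom hF ω hω c • Ph hF ω hω A := by
  ext i j
  simp [Ph_apply]

theorem of_w : ofH4Hom hF ω hω w = ω := rfl

theorem Ph_m1five (A : M5) : m1five ω (Ph hF ω hω A) = Ph hF ω hω (m1five w A) := by
  unfold m1five
  simp only [map_add, map_pow, map_one, Ph_smul, of_w]

theorem Ph_unitary (A : M5) (h : Aᵀ * A.map (· ^ 2) = 1) :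
    (Ph hF ω hω A)ᵀ * (Ph hF ω hω A).map (· ^ 2) = 1 := by
  have e1 : (Ph hF ω hω A)ᵀ = Ph hF ω hω Aᵀ := by
    ext i j; simp [Ph_apply]
  have e2 : (Ph hF ω hω A).map (· ^ 2) = Ph hF ω hω (A.map (· ^ 2)) := by
    ext i j; simp [Ph_apply]
  rw [e1, e2, ← map_mul, h, map_one]

theorem Ph_det (A : M5) : (Ph hF ω hω A).det = ofH4Hom hF ω hω A.det :=
  ((ofH4Hom hF ω hω).map_det A).symm

theorem Ph_mulVec (A : M5) (x : Fin 5 → H4) :
    Ph hF ω hω A *ᵥ (fun i => ofH4Hom hF ω hω (x i)) = fun i => ofH4Hom hF ω hω ((A *ᵥ x) i) := by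
  funext i
  exact (RingHom.map_mulVec (ofH4Hom hF ω hω) A x i).symm

theorem herm_map (x y : Fin 5 → H4) :
    hermForm 5 F 2 (fun i => ofH4Hom hF ω hω (x i)) (fun i => ofH4Hom hF ω hω (y i))
      = ofH4Hom hF ω hω (hermForm 5 H4 2 x y) := by
  simp only [hermForm, map_sum, map_mul, map_pow]

/-- the unit attached to a pair of inverse matrices -/
noncomputable def mkGL (A B : M5) (h1 : A * B = 1) (h2 : B * A = 1) : GL (Fin 5) F :=
  ⟨Ph hF ω hω A, Ph hF ω hω B, by rw [← map_mul, h1, map_one], by rw [← map_mul, h2, map_one]⟩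

theorem mkGL_mem_GU (hF2 : Fintype.card F = 2 ^ 2) (A B : M5) (h1 : A * B = 1) (h2 : B * A = 1)
    (h : Aᵀ * A.map (· ^ 2) = 1) : mkGL hF ω hω A B h1 h2 ∈ GU 5 F 2 := by
  rw [mem_GU_iff]
  exact (Cfsg.Agent.Lib.Helper5.preserves_hermForm_iff hF2 _).2 (Ph_unitary hF ω hω A h)

theorem mkGL_mem_SUg (hF2 : Fintype.card F = 2 ^ 2) (A B : M5) (h1 : A * B = 1) (h2 : B * A = 1)
    (h : Aᵀ * A.map (· ^ 2) = 1) (hd : A.det = 1) : mkGL hF ω hω A B h1 h2 ∈ SUg 5 F 2 := by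
  rw [mem_SUg_iff]
  refine ⟨(Cfsg.Agent.Lib.Helper5.preserves_hermForm_iff hF2 _).2 (Ph_unitary hF ω hω A h), ?_⟩
  show (Ph hF ω hω A).det = 1
  rw [Ph_det, hd, map_one]

noncomputable def lG : GL (Fin 5) F := mkGL hF ω hω P1 P10 P1_mul10 P10_mul

theorem lG_pow (j : ℕ) : ((lG hF ω hω ^ j : GL (Fin 5) F) : Matrix (Fin 5) (Fin 5) F)
    = Ph hF ω hω (P1 ^ j) := by
  rw [Units.val_pow_eq_pow_val, map_pow]
  rfl

theorem cond5_iff (x : Fin 5 → H4) :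
    cond5 ω (lG hF ω hω) (fun i => ofH4Hom hF ω hω (x i))
      ↔ c5b (x 0) (x 1) (x 2) (x 3) (x 4) = true := by
  have hinj := (ofH4Hom hF ω hω).injective
  have key : ∀ (j : ℕ) (M : M5), P1 ^ j = M →
      (hermForm 5 F 2 (((lG hF ω hω ^ j : GL (Fin 5) F) : Matrix (Fin 5) (Fin 5) F) *ᵥ
        (fun i => ofH4Hom hF ω hω (x i))) (fun i => ofH4Hom hF ω hω (x i)) ≠ ω
        ↔ hfM M (x 0) (x 1) (x 2) (x 3) (x 4) ≠ w) := by
    intro j M hM
    rw [lG_pow, hM, Ph_mulVec, herm_map, herm_eq_hfM]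
    exact hinj.ne_iff (y := w)
  have key0 : hermForm 5 F 2 (fun i => ofH4Hom hF ω hω (x i)) (fun i => ofH4Hom hF ω hω (x i)) = 1
      ↔ x 0 * (x 0 * x 0) + x 1 * (x 1 * x 1) + x 2 * (x 2 * x 2)
      + x 3 * (x 3 * x 3) + x 4 * (x 4 * x 4) = 1 := by
    rw [herm_map, herm_self, ← map_one (ofH4Hom hF ω hω)]
    exact hinj.eq_iff
  unfold cond5
  simp only [Finset.forall_mem_insert, Finset.mem_singleton, forall_eq]
  rw [key0, key 1 P1 pw1, key 3 P3 pw3, key 4 P4 pw4, key 5 P5 pw5, key 9 P9 pw9]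
  simp only [c5b, Bool.and_eq_true, decide_eq_true_eq]
  tauto

end transfer

end E5

open E5 in
/-- E5D -/
theorem e5_data {F : Type*} [Field F] [Fintype F]
    (hF : Fintype.card F = 2 ^ 2) (ω : F) (hω : ω ^ 2 + ω + 1 = 0) :
    ∃ l g s : GL (Fin 5) F, l ∈ GU 5 F 2 ∧ l ^ 11 = 1 ∧ l ≠ 1 ∧
      m1five ω (l : Matrix (Fin 5) (Fin 5) F) = 0 ∧
      (∀ j ∈ ({2, 6, 7, 8, 10} : Finset ℕ),
        m1five ω ((l ^ j : GL (Fin 5) F) : Matrix (Fin 5) (Fin 5) F) ≠ 0) ∧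
      g ∈ SUg 5 F 2 ∧
      (∀ x, cond5 ω l ((g : Matrix (Fin 5) (Fin 5) F) *ᵥ x) ↔ cond5 ω l x) ∧
      g * l * g⁻¹ * l ≠ l * (g * l * g⁻¹) ∧
      s ∈ SUg 5 F 2 ∧ ∃ x, cond5 ω l x ∧ ¬ cond5 ω l ((s : Matrix (Fin 5) (Fin 5) F) *ᵥ x) := by
  have hF4 : Fintype.card F = 4 := by rw [hF]; norm_num
  have hinj := Ph_injective hF4 ω hω
  refine ⟨lG hF4 ω hω, mkGL hF4 ω hω Gm Gi Gm_Gi Gi_Gm, mkGL hF4 ω hω Sm Sm Sm_Sm Sm_Sm,
    mkGL_mem_GU hF4 ω hω hF _ _ _ _ P1_unitary, ?_, ?_, ?_, ?_,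
    mkGL_mem_SUg hF4 ω hω hF _ _ _ _ Gm_unitary Gm_det, ?_, ?_,
    mkGL_mem_SUg hF4 ω hω hF _ _ _ _ Sm_unitary Sm_det, ?_⟩
  · apply Units.ext
    rw [lG_pow, pw11, map_one]
    rfl
  · intro h
    have h1 : Ph hF4 ω hω P1 = Ph hF4 ω hω 1 := by
      rw [map_one]
      exact congrArg Units.val h
    exact P1_ne_one (hinj h1)
  · show m1five ω (Ph hF4 ω hω P1) = 0
    rw [Ph_m1five, m1_P1, map_zero]
  · have key : ∀ (j : ℕ) (M : M5), P1 ^ j = M → m1five H4.w M ≠ 0 →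
        m1five ω ((lG hF4 ω hω ^ j : GL (Fin 5) F) : Matrix (Fin 5) (Fin 5) F) ≠ 0 := by
      intro j M hM hne h
      rw [lG_pow, hM, Ph_m1five, ← map_zero (Ph hF4 ω hω)] at h
      exact hne (hinj h)
    simp only [Finset.forall_mem_insert, Finset.mem_singleton, forall_eq]
    exact ⟨key 2 P2 pw2 m1_P2, key 6 P6 pw6 m1_P6, key 7 P7 pw7 m1_P7, key 8 P8 pw8 m1_P8,
      key 10 P10 pw10 m1_P10⟩
  · intro x
    obtain ⟨a, rfl⟩ : ∃ a : Fin 5 → H4, x = fun i => ofH4Hom hF4 ω hω (a i) := by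
      refine ⟨fun i => toH4 hF4 ω hω (x i), ?_⟩
      funext i
      exact ((RingEquiv.ofBijective _ (ofH4Hom_bijective hF4 ω hω)).apply_symm_apply (x i)).symm
    show cond5 ω (lG hF4 ω hω) (Ph hF4 ω hω Gm *ᵥ _) ↔ _
    rw [Ph_mulVec, cond5_iff, cond5_iff]
    simp only [mulVec_eq_lin]
    rw [c5b_inv]
  · intro h
    have h1 := congrArg Units.val h
    have h2 : Ph hF4 ω hω (Gm * P1 * Gi * P1) = Ph hF4 ω hω (P1 * (Gm * P1 * Gi)) := by
      simp only [map_mul]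
      exact h1
    exact noncomm (hinj h2)
  · refine ⟨fun i => ofH4Hom hF4 ω hω ((![0, 0, 1, H4.w, 1] : Fin 5 → H4) i), ?_, ?_⟩
    · rw [cond5_iff]
      exact c5b_x
    · show ¬ cond5 ω (lG hF4 ω hω) (Ph hF4 ω hω Sm *ᵥ _)
      rw [Ph_mulVec, cond5_iff]
      simp only [mulVec_eq_lin]
      have := c5b_sx
      intro h
      rw [show (![0, 0, 1, H4.w, 1] : Fin 5 → H4) 0 = 0 from rfl,
        show (![0, 0, 1, H4.w, 1] : Fin 5 → H4) 1 = 0 from rfl,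
        show (![0, 0, 1, H4.w, 1] : Fin 5 → H4) 2 = 1 from rfl,
        show (![0, 0, 1, H4.w, 1] : Fin 5 → H4) 3 = H4.w from rfl,
        show (![0, 0, 1, H4.w, 1] : Fin 5 → H4) 4 = 1 from rfl, this] at h
      exact Bool.false_ne_true h

end Cfsg.Agent.Lib.Helper86.SUSmall
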