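import Cfsg.Agent.Lib.Helper13.SUSmall.Defs
import Cfsg.Agent.Lib.Helper13.Herm
import Cfsg.Agent.Lib.Helper5.HermFrames
import Cfsg.Agent.Lib.Helper5.SUAsch.Bridge

/-! su_small piece E6cN: normal form of a unitary cube root of `ω` in `GU_6(2)`. -/

set_option autoImplicit false

namespace Cfsg.Agent.Lib.Helper86.SUSmall

open Cfsg Cfsg.Geo Matrix Cfsg.Agent.Lib.Helper5.SUAsch Cfsg.Agent.Lib.Helper13.SUSmall
open Cfsg.Agent.Lib.Helper13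
open scoped MatrixGroups

namespace E6

variable {F : Type*} [Field F] [Fintype F]

theorem two_eq_zero (hF : Fintype.card F = 2 ^ 2) : (2 : F) = 0 := by
  have h4 : ((Fintype.card F : ℕ) : F) = 0 := Nat.cast_card_eq_zero F
  rw [hF] at h4
  have h5 : (2 : F) * 2 = 0 := by
    have : ((2 ^ 2 : ℕ) : F) = 2 * 2 := by norm_num
    rw [← this]; exact h4
  exact mul_self_eq_zero.1 h5

theorem pow_four (hF : Fintype.card F = 2 ^ 2) (x : F) : x ^ 4 = x := by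
  have := FiniteField.pow_card x
  rw [hF] at this
  exact this

theorem herm_sum_left {n q : ℕ} {κ : Type*} (s : Finset κ) (c : κ → F) (v : κ → Fin n → F)
    (y : Fin n → F) :
    hermForm n F q (∑ j ∈ s, c j • v j) y = ∑ j ∈ s, c j * hermForm n F q (v j) y := by
  classical
  induction s using Finset.induction_on with
  | empty => simp [Cfsg.hermForm]
  | insert a s ha ih =>
    rw [Finset.sum_insert ha, Finset.sum_insert ha, hermForm_add_left, hermForm_smul_left, ih]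

theorem li_of_orthonormal {n q : ℕ} {κ : Type*} [Fintype κ] [DecidableEq κ] (y : κ → Fin n → F)
    (h : ∀ i j, hermForm n F q (y i) (y j) = if i = j then 1 else 0) : LinearIndependent F y := by
  rw [Fintype.linearIndependent_iff]
  intro c hc j
  have h1 : hermForm n F q (∑ i, c i • y i) (y j) = hermForm n F q 0 (y j) := by rw [hc]
  rw [herm_sum_left] at h1
  have h0 : hermForm n F q (0 : Fin n → F) (y j) = 0 := by simp [Cfsg.hermForm]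
  rw [h0] at h1
  simpa [h] using h1

theorem herm_single (i j : Fin 6) :
    hermForm 6 F 2 (Pi.single i 1) (Pi.single j 1) = if i = j then 1 else 0 := by
  rw [hermForm_single_left]
  by_cases h : i = j
  · subst h; simp
  · rw [if_neg h, Pi.single_eq_of_ne h]; simp

section core

variable (hF : Fintype.card F = 2 ^ 2) (ω : F) (hω : ω ^ 2 + ω + 1 = 0)
  (Λ : Matrix (Fin 6) (Fin 6) F)
  (hΛ : ∀ u v, hermForm 6 F 2 (Λ *ᵥ u) (Λ *ᵥ v) = hermForm 6 F 2 u v)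
  (h3 : ∀ v, Λ *ᵥ (Λ *ᵥ (Λ *ᵥ v)) = ω • v)

include hF hΛ h3 in
theorem herm_sq (u : Fin 6 → F) :
    hermForm 6 F 2 (Λ *ᵥ (Λ *ᵥ u)) u = ω * (hermForm 6 F 2 (Λ *ᵥ u) u) ^ 2 := by
  rw [← hΛ (Λ *ᵥ (Λ *ᵥ u)) u, h3, hermForm_smul_left, hermForm_swap hF]

include hF hω hΛ h3 in
theorem lemmaA (u : Fin 6 → F) (hu : hermForm 6 F 2 u u = 1) :
    hermForm 6 F 2 (u + (ω * (hermForm 6 F 2 (Λ *ᵥ u) u) ^ 2) • (Λ *ᵥ u))
        (u + (ω * (hermForm 6 F 2 (Λ *ᵥ u) u) ^ 2) • (Λ *ᵥ u)) = 1 ∧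
    hermForm 6 F 2 (Λ *ᵥ (u + (ω * (hermForm 6 F 2 (Λ *ᵥ u) u) ^ 2) • (Λ *ᵥ u)))
        (u + (ω * (hermForm 6 F 2 (Λ *ᵥ u) u) ^ 2) • (Λ *ᵥ u)) = 0 := by
  have h2 := two_eq_zero hF
  have hsq := herm_sq hF ω Λ hΛ h3 u
  have hsw := hermForm_swap hF (Λ *ᵥ u) u
  set τ := hermForm 6 F 2 (Λ *ᵥ u) u with hτdef
  have hτ := pow_four hF τ
  constructor
  · rw [hermForm_add_left, hermForm_add_right hF, hermForm_add_right hF, hermForm_smul_left,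
      hermForm_smul_left, hermForm_smul_right, hermForm_smul_right, hΛ, hu, ← hsw, ← hτdef]
    linear_combination (ω ^ 2 + ω ^ 3) * τ ^ 2 * hτ + τ ^ 3 * ω * hω
  · rw [mulVec_add, mulVec_smul, hermForm_add_left, hermForm_add_right hF, hermForm_add_right hF,
      hermForm_smul_left, hermForm_smul_left, hermForm_smul_right, hermForm_smul_right, hΛ, hΛ, hu,
      hsq, ← hτdef]
    linear_combination (ω ^ 2 * τ ^ 4 + τ) * h2 + (τ ^ 3 + 1) * hτ + (ω - 1) * τ ^ 7 * hω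

/-- the Gram matrix of `v, Λv, Λ²v` -/
def Gram3 (v : Fin 6 → F) : Prop :=
  hermForm 6 F 2 v v = 1 ∧ hermForm 6 F 2 v (Λ *ᵥ v) = 0 ∧ hermForm 6 F 2 v (Λ *ᵥ (Λ *ᵥ v)) = 0 ∧
  hermForm 6 F 2 (Λ *ᵥ v) v = 0 ∧ hermForm 6 F 2 (Λ *ᵥ v) (Λ *ᵥ v) = 1 ∧
  hermForm 6 F 2 (Λ *ᵥ v) (Λ *ᵥ (Λ *ᵥ v)) = 0 ∧
  hermForm 6 F 2 (Λ *ᵥ (Λ *ᵥ v)) v = 0 ∧ hermForm 6 F 2 (Λ *ᵥ (Λ *ᵥ v)) (Λ *ᵥ v) = 0 ∧
  hermForm 6 F 2 (Λ *ᵥ (Λ *ᵥ v)) (Λ *ᵥ (Λ *ᵥ v)) = 1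

include hF hΛ h3 in
theorem lemmaB (v : Fin 6 → F) (h1 : hermForm 6 F 2 v v = 1)
    (h0 : hermForm 6 F 2 (Λ *ᵥ v) v = 0) : Gram3 Λ v := by
  have hsq := herm_sq hF ω Λ hΛ h3 v
  have hsw := hermForm_swap hF (Λ *ᵥ v) v
  have hsw2 := hermForm_swap hF (Λ *ᵥ (Λ *ᵥ v)) v
  rw [h0] at hsq hsw
  have e01 : hermForm 6 F 2 v (Λ *ᵥ v) = 0 := by rw [← hsw]; simp
  have e20 : hermForm 6 F 2 (Λ *ᵥ (Λ *ᵥ v)) v = 0 := by rw [hsq]; simp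
  have e02 : hermForm 6 F 2 v (Λ *ᵥ (Λ *ᵥ v)) = 0 := by rw [← hsw2, e20]; simp
  refine ⟨h1, e01, e02, h0, by rw [hΛ, h1], by rw [hΛ, e01], e20, by rw [hΛ, h0],
    by rw [hΛ, hΛ, h1]⟩

/-- `x` is perpendicular to `v, Λv, Λ²v` -/
def Perp3 (v x : Fin 6 → F) : Prop :=
  hermForm 6 F 2 x v = 0 ∧ hermForm 6 F 2 x (Λ *ᵥ v) = 0 ∧ hermForm 6 F 2 x (Λ *ᵥ (Λ *ᵥ v)) = 0

include hω hΛ h3 in
theorem Perp3.map {v x : Fin 6 → F} (h : Perp3 Λ v x) : Perp3 Λ v (Λ *ᵥ x) := by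
  obtain ⟨a, b, c⟩ := h
  have hω0 : ω ≠ 0 := by
    rintro rfl
    simp at hω
  refine ⟨?_, by rw [hΛ, a], by rw [hΛ, b]⟩
  have h1 : hermForm 6 F 2 (Λ *ᵥ x) (ω • v) = 0 := by rw [← h3, hΛ, c]
  rw [hermForm_smul_right] at h1
  exact (mul_eq_zero.1 h1).resolve_left (pow_ne_zero _ hω0)

theorem Perp3.add_smul {v x y : Fin 6 → F} (hx : Perp3 Λ v x) (hy : Perp3 Λ v y) (b : F) :
    Perp3 Λ v (x + b • y) := by
  obtain ⟨a1, a2, a3⟩ := hx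
  obtain ⟨b1, b2, b3⟩ := hy
  refine ⟨?_, ?_, ?_⟩ <;>
    rw [hermForm_add_left, hermForm_smul_left] <;> simp [-Matrix.mulVec_mulVec, *]

include hF in
theorem Perp3.swap {v x : Fin 6 → F} (h : Perp3 Λ v x) :
    hermForm 6 F 2 v x = 0 ∧ hermForm 6 F 2 (Λ *ᵥ v) x = 0 ∧
      hermForm 6 F 2 (Λ *ᵥ (Λ *ᵥ v)) x = 0 := by
  obtain ⟨a, b, c⟩ := h
  refine ⟨?_, ?_, ?_⟩
  · rw [← hermForm_swap hF, a]; simp
  · rw [← hermForm_swap hF, b]; simp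
  · rw [← hermForm_swap hF, c]; simp

include hF hω hΛ h3 in
theorem exists_frame : ∃ v v' : Fin 6 → F, Gram3 Λ v ∧ Gram3 Λ v' ∧ Perp3 Λ v v' ∧
    Perp3 Λ v (Λ *ᵥ v') ∧ Perp3 Λ v (Λ *ᵥ (Λ *ᵥ v')) := by
  obtain ⟨hv1, hv0⟩ := lemmaA hF ω hω Λ hΛ h3 (Pi.single 0 1) (by rw [herm_single]; simp)
  set v := (Pi.single 0 1 : Fin 6 → F) + (ω * (hermForm 6 F 2 (Λ *ᵥ (Pi.single 0 1 : Fin 6 → F))
    (Pi.single 0 1)) ^ 2) • (Λ *ᵥ (Pi.single 0 1 : Fin 6 → F)) with hv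
  have hG := lemmaB hF ω Λ hΛ h3 v hv1 hv0
  obtain ⟨g00, g01, g02, g10, g11, g12, g20, g21, g22⟩ := hG
  have hx : ∀ i j : Fin 3, hermForm 6 F 2
      ((![Pi.single 0 1, Pi.single 1 1, Pi.single 2 1] : Fin 3 → Fin 6 → F) i)
      ((![Pi.single 0 1, Pi.single 1 1, Pi.single 2 1] : Fin 3 → Fin 6 → F) j)
      = if i = j then 1 else 0 := by
    intro i j
    fin_cases i <;> fin_cases j <;> simp [herm_single]
  have hy : ∀ i j : Fin 3, hermForm 6 F 2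
      ((![v, Λ *ᵥ v, Λ *ᵥ (Λ *ᵥ v)] : Fin 3 → Fin 6 → F) i)
      ((![v, Λ *ᵥ v, Λ *ᵥ (Λ *ᵥ v)] : Fin 3 → Fin 6 → F) j)
      = if i = j then 1 else 0 := by
    intro i j
    fin_cases i <;> fin_cases j <;>
      simp [-Matrix.mulVec_mulVec, g00, g01, g02, g10, g11, g12, g20, g21, g22]
  obtain ⟨A, hA⟩ := Cfsg.Agent.Lib.Helper5.exists_gu_of_frames hF 6 _ _
    (li_of_orthonormal _ hx) (li_of_orthonormal _ hy) (fun i j => by rw [hx, hy])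
  have hA0 : Cfsg.Agent.Lib.Helper5.guToMat 6 F 2 A *ᵥ (Pi.single 0 1) = v := congrFun hA 0
  have hA1 : Cfsg.Agent.Lib.Helper5.guToMat 6 F 2 A *ᵥ (Pi.single 1 1) = Λ *ᵥ v := congrFun hA 1
  have hA2 : Cfsg.Agent.Lib.Helper5.guToMat 6 F 2 A *ᵥ (Pi.single 2 1) = Λ *ᵥ (Λ *ᵥ v) :=
    congrFun hA 2
  set u' := Cfsg.Agent.Lib.Helper5.guToMat 6 F 2 A *ᵥ (Pi.single 3 1 : Fin 6 → F) with hu'
  have hu1 : hermForm 6 F 2 u' u' = 1 := by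
    rw [hu', Cfsg.Agent.Lib.Helper5.gu_preserves, herm_single]; simp
  have hP : Perp3 Λ v u' := by
    refine ⟨?_, ?_, ?_⟩
    · rw [← hA0, hu', Cfsg.Agent.Lib.Helper5.gu_preserves, herm_single]; simp
    · rw [← hA1, hu', Cfsg.Agent.Lib.Helper5.gu_preserves, herm_single]; simp
    · rw [← hA2, hu', Cfsg.Agent.Lib.Helper5.gu_preserves, herm_single]; simp
  obtain ⟨hw1, hw0⟩ := lemmaA hF ω hω Λ hΛ h3 u' hu1
  have hP' := hP.add_smul Λ (hP.map ω hω Λ hΛ h3) (ω * (hermForm 6 F 2 (Λ *ᵥ u') u') ^ 2)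
  exact ⟨v, _, ⟨g00, g01, g02, g10, g11, g12, g20, g21, g22⟩, lemmaB hF ω Λ hΛ h3 _ hw1 hw0, hP',
    hP'.map ω hω Λ hΛ h3, (hP'.map ω hω Λ hΛ h3).map ω hω Λ hΛ h3⟩

end core

end E6

open E6 in
/-- E6cN -/
theorem e6c_normal {F : Type*} [Field F] [Fintype F]
    (hF : Fintype.card F = 2 ^ 2) (ω : F) (hω : ω ^ 2 + ω + 1 = 0)
    (l : GL (Fin 6) F) (hl : l ∈ GU 6 F 2)
    (h3 : (l : Matrix (Fin 6) (Fin 6) F) ^ 3 = ω • (1 : Matrix (Fin 6) (Fin 6) F)) :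
    ∃ T ∈ GU 6 F 2, (l : Matrix (Fin 6) (Fin 6) F) * (T : Matrix (Fin 6) (Fin 6) F) =
      (T : Matrix (Fin 6) (Fin 6) F) * lam6 ω := by
  set Λ : Matrix (Fin 6) (Fin 6) F := (l : Matrix (Fin 6) (Fin 6) F) with hΛdef
  have hΛ : ∀ u v, hermForm 6 F 2 (Λ *ᵥ u) (Λ *ᵥ v) = hermForm 6 F 2 u v := (mem_GU_iff l).1 hl
  have h3' : ∀ v, Λ *ᵥ (Λ *ᵥ (Λ *ᵥ v)) = ω • v := by
    intro v
    rw [Matrix.mulVec_mulVec, Matrix.mulVec_mulVec, ← pow_two, ← pow_succ, h3,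
      Matrix.smul_mulVec, Matrix.one_mulVec]
  obtain ⟨v, v', ⟨g00, g01, g02, g10, g11, g12, g20, g21, g22⟩,
    ⟨k00, k01, k02, k10, k11, k12, k20, k21, k22⟩, p0, p1, p2⟩ := exists_frame hF ω hω Λ hΛ h3'
  obtain ⟨s00, s01, s02⟩ := p0.swap hF Λ
  obtain ⟨s10, s11, s12⟩ := p1.swap hF Λ
  obtain ⟨s20, s21, s22⟩ := p2.swap hF Λ
  obtain ⟨p00, p01, p02⟩ := p0
  obtain ⟨p10, p11, p12⟩ := p1
  obtain ⟨p20, p21, p22⟩ := p2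
  have hx : ∀ i j : Fin 6, hermForm 6 F 2 ((fun i => Pi.single i 1 : Fin 6 → Fin 6 → F) i)
      ((fun i => Pi.single i 1 : Fin 6 → Fin 6 → F) j) = if i = j then 1 else 0 :=
    fun i j => herm_single i j
  have hy : ∀ i j : Fin 6, hermForm 6 F 2
      ((![v, Λ *ᵥ v, Λ *ᵥ (Λ *ᵥ v), v', Λ *ᵥ v', Λ *ᵥ (Λ *ᵥ v')] : Fin 6 → Fin 6 → F) i)
      ((![v, Λ *ᵥ v, Λ *ᵥ (Λ *ᵥ v), v', Λ *ᵥ v', Λ *ᵥ (Λ *ᵥ v')] : Fin 6 → Fin 6 → F) j)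
      = if i = j then 1 else 0 := by
    intro i j
    fin_cases i <;> fin_cases j <;>
      simp [-Matrix.mulVec_mulVec, g00, g01, g02, g10, g11, g12, g20, g21, g22,
        k00, k01, k02, k10, k11, k12, k20, k21, k22, s00, s01, s02, s10, s11, s12, s20, s21, s22,
        p00, p01, p02, p10, p11, p12, p20, p21, p22]
  obtain ⟨A, hA⟩ := Cfsg.Agent.Lib.Helper5.exists_gu_of_frames hF 6 _ _
    (li_of_orthonormal _ hx) (li_of_orthonormal _ hy) (fun i j => by rw [hx, hy])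
  refine ⟨A.1, A.2, ?_⟩
  set T : Matrix (Fin 6) (Fin 6) F := ((A.1 : GL (Fin 6) F) : Matrix (Fin 6) (Fin 6) F) with hT
  have hA0 : T *ᵥ (Pi.single 0 1) = v := congrFun hA 0
  have hA1 : T *ᵥ (Pi.single 1 1) = Λ *ᵥ v := congrFun hA 1
  have hA2 : T *ᵥ (Pi.single 2 1) = Λ *ᵥ (Λ *ᵥ v) := congrFun hA 2
  have hA3 : T *ᵥ (Pi.single 3 1) = v' := congrFun hA 3
  have hA4 : T *ᵥ (Pi.single 4 1) = Λ *ᵥ v' := congrFun hA 4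
  have hA5 : T *ᵥ (Pi.single 5 1) = Λ *ᵥ (Λ *ᵥ v') := congrFun hA 5
  have c0 : lam6 ω *ᵥ (Pi.single 0 1) = Pi.single 1 1 := by
    funext i; fin_cases i <;> simp [lam6]
  have c1 : lam6 ω *ᵥ (Pi.single 1 1) = Pi.single 2 1 := by
    funext i; fin_cases i <;> simp [lam6]
  have c2 : lam6 ω *ᵥ (Pi.single 2 1) = ω • Pi.single 0 1 := by
    funext i; fin_cases i <;> simp [lam6]
  have c3 : lam6 ω *ᵥ (Pi.single 3 1) = Pi.single 4 1 := by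
    funext i; fin_cases i <;> simp [lam6]
  have c4 : lam6 ω *ᵥ (Pi.single 4 1) = Pi.single 5 1 := by
    funext i; fin_cases i <;> simp [lam6]
  have c5 : lam6 ω *ᵥ (Pi.single 5 1) = ω • Pi.single 3 1 := by
    funext i; fin_cases i <;> simp [lam6]
  apply Matrix.ext_of_mulVec_single
  intro j
  rw [← Matrix.mulVec_mulVec, ← Matrix.mulVec_mulVec]
  fin_cases j
  · show Λ *ᵥ (T *ᵥ Pi.single 0 1) = T *ᵥ (lam6 ω *ᵥ Pi.single 0 1)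
    rw [c0, hA0, hA1]
  · show Λ *ᵥ (T *ᵥ Pi.single 1 1) = T *ᵥ (lam6 ω *ᵥ Pi.single 1 1)
    rw [c1, hA1, hA2]
  · show Λ *ᵥ (T *ᵥ Pi.single 2 1) = T *ᵥ (lam6 ω *ᵥ Pi.single 2 1)
    rw [c2, hA2, Matrix.mulVec_smul, hA0, h3']
  · show Λ *ᵥ (T *ᵥ Pi.single 3 1) = T *ᵥ (lam6 ω *ᵥ Pi.single 3 1)
    rw [c3, hA3, hA4]
  · show Λ *ᵥ (T *ᵥ Pi.single 4 1) = T *ᵥ (lam6 ω *ᵥ Pi.single 4 1)
    rw [c4, hA4, hA5]
  · show Λ *ᵥ (T *ᵥ Pi.single 5 1) = T *ᵥ (lam6 ω *ᵥ Pi.single 5 1)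
    rw [c5, hA5, Matrix.mulVec_smul, hA3, h3']

end Cfsg.Agent.Lib.Helper86.SUSmall
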